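import Cfsg.Agent.H97.GaMain
import Cfsg.Agent.H97.GaGrp
import Cfsg.Agent.S0212

/-! The group of the rational Griess algebra is finite (reduction modulo large primes). -/

set_option autoImplicit false

namespace Cfsg.Agent.H12.GaFin

open H97.GA H97 H15 Matrix
open scoped Kronecker Classical

attribute [-simp] Fintype.sum_option Fintype.prod_option

section
variable {R S : Type*} [CommRing R] [CommRing S] (f : R →+* S)

theorem map_chi (a : ZMod 2) : f (chi R a) = chi S a := by unfold chi; split_ifs <;> simp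

theorem ph_map (b : B R) (v : Vec) : ph (f ∘ b) v = f (ph b v) := by unfold ph; split_ifs <;> simp

theorem sM_map (b : B R) : sM (f ∘ b) = (sM b).map f := rfl

theorem uu_map (b : B R) : uu (f ∘ b) = f ∘ uu b := rfl

theorem Nf_map (b : B R) : Nf (f ∘ b) = f (Nf b) := by
  simp only [Nf, map_add, map_mul, map_sum, map_pow, map_ofNat, trace, diag, mul_apply, dotProduct, ph_map, sM_map,
    uu_map, map_apply, Function.comp_apply]

theorem LL_map (s : Matrix GolayPt GolayPt R) (φ : Vec → R) (p q : Cw × GolayPt) :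
    f (LL s φ p q) = LL (s.map f) (fun v => f (φ v)) p q := by
  simp only [LL, Matrix.add_apply, Matrix.sum_apply, Matrix.smul_apply, kroneckerMap_apply, smul_eq_mul, map_add,
    map_mul, map_sum, map_ofNat, trace, diag, map_apply, one_apply, apply_ite f, map_one, map_zero, XV, of_apply,
    map_chi, Matrix.sub_apply, map_sub, PP, vecMulVec_apply, vF, map_intCast]

theorem Phi_map (b : B R) : Phi (f ∘ b) = f (Phi b) := by
  have : ph (f ∘ b) = fun v => f (ph b v) := funext (ph_map f b)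
  simp only [Phi, this, map_add, map_mul, map_sum, map_pow, map_ofNat, trace, diag, mul_apply, dotProduct, sM_map,
    uu_map, map_apply, Function.comp_apply, mulVec, T3, map_chi, LL_map, vF, map_intCast]

theorem Nf_smul (t : R) (b : B R) : Nf (t • b) = t ^ 2 * Nf b := by
  simp only [Nf, sM_smul, uu_smul, ph_smul, Matrix.smul_mul, Matrix.mul_smul, trace_smul, smul_dotProduct,
    dotProduct_smul, smul_eq_mul, mul_pow, ← Finset.mul_sum]
  ring

theorem LL_smul (t : R) (s : Matrix GolayPt GolayPt R) (φ : Vec → R) :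
    LL (t • s) (fun v => t * φ v) = t • LL s φ := by
  rw [LL, LL, smul_add, Finset.smul_sum, ← kronecker_smul, trace_smul]
  congr 1
  · congr 1
    rw [smul_eq_mul]; module
  · exact Finset.sum_congr rfl fun r _ => by rw [smul_smul, mul_left_comm]

theorem Phi_smul (t : R) (b : B R) : Phi (t • b) = t ^ 3 * Phi b := by
  have : ph (t • b) = fun v => t * ph b v := funext (ph_smul t b)
  have h1 : T3 (fun v => t * ph b v) (fun v => t * ph b v) (fun v => t * ph b v) = t ^ 3 * T3 (ph b) (ph b) (ph b) := by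
    simp only [T3, Finset.mul_sum]
    exact Finset.sum_congr rfl fun r _ => Finset.sum_congr rfl fun s _ => by ring
  have h2 : ∑ r ∈ M2, (vF R r ⬝ᵥ (t • sM b) *ᵥ vF R r) * (t * ph b r) ^ 2 =
      t ^ 3 * ∑ r ∈ M2, (vF R r ⬝ᵥ sM b *ᵥ vF R r) * ph b r ^ 2 := by
    rw [Finset.mul_sum]
    exact Finset.sum_congr rfl fun r _ => by rw [smul_mulVec, dotProduct_smul, smul_eq_mul]; ring
  rw [Phi, Phi, this, sM_smul, uu_smul, h1, h2, LL_smul]
  simp only [Matrix.smul_mul, Matrix.mul_smul, trace_smul, smul_dotProduct, dotProduct_smul, smul_eq_mul, smul_mulVec,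
    mulVec_smul]
  ring

end

theorem exists_bound : ∃ K : ℕ, ∀ (G : Type) [Group G] [Finite G] (z : G) (x : GA.Lat → G), MX z x → Nat.card G ≤ K := by
  refine ⟨Nat.factorial (2 * (2 ^ (2 * 12 + 1) * Nat.card Spor.Co1) ^ 2), fun G _ _ z x h => ?_⟩
  have := h.simple
  obtain ⟨π, hs, hk, -⟩ := h.exists_pi'
  have hle : h.Q ≤ Subgroup.centralizer ({z} : Set G) := fun a ha =>
    Subgroup.mem_centralizer_singleton_iff.2 (h.ex.cen a ha)
  have e1 : π.ker = h.Q.subgroupOf _ := Subgroup.ext hk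
  have e2 := π.ker.card_mul_index
  rw [Subgroup.index_ker, MonoidHom.range_eq_top.2 hs, Subgroup.card_top, e1,
    Nat.card_congr (Subgroup.subgroupOfEquivOfLe hle).toEquiv, h.card_Q] at e2
  rw [e2]
  exact S0212.result z (orderOf_eq_prime (by rw [pow_two, h.z_sq]) h.z_ne)

instance big_rat : Big ℚ := ⟨fun _ h _ => Nat.cast_ne_zero.2 h⟩

theorem big_zmod {p : ℕ} [Fact p.Prime] (hp : 200 < p) : Big (ZMod p) := ⟨fun n h0 h1 e =>
  absurd (Nat.le_of_dvd (Nat.pos_of_ne_zero h0) ((ZMod.natCast_eq_zero_iff n p).1 e)) (by omega)⟩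

theorem finite_zmod (p : ℕ) [Fact p.Prime] : Finite (GG (ZMod p)) := by
  have : Finite (B (ZMod p) ≃ₗ[ZMod p] B (ZMod p)) :=
    Finite.of_injective (fun g => (g : B (ZMod p) → B (ZMod p))) DFunLike.coe_injective
  infer_instance

instance finite_rat : Finite (GG ℚ) := by
  obtain ⟨K, hK⟩ := exists_bound
  by_contra hinf
  rw [not_finite_iff_infinite] at hinf
  obtain ⟨s, hs⟩ := Infinite.exists_subset_card_eq (GG ℚ) (K + 1)
  let M : s → Matrix Ix Ix ℚ := fun g => LinearMap.toMatrix' (g.1.1 : B ℚ →ₗ[ℚ] B ℚ)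
  have hM : ∀ g b, M g *ᵥ b = g.1.1 b := fun g b => LinearMap.toMatrix'_mulVec _ b
  obtain ⟨N, hN⟩ := IsLocalization.exist_integer_multiples_of_finite (nonZeroDivisors ℤ)
    (fun t : s × Ix × Ix => M t.1 t.2.1 t.2.2)
  choose A hA using hN
  have N0 : (N : ℤ) ≠ 0 := nonZeroDivisors.ne_zero N.2
  let A' : s → Matrix Ix Ix ℤ := fun g => of fun i j => A (g, i, j)
  have hA' : ∀ g, (A' g).map (Int.castRingHom ℚ) = ((N : ℤ) : ℚ) • M g := fun g => by
    ext i j
    exact (hA (g, i, j)).trans (by rw [zsmul_eq_mul]; rfl)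
  have key : ∀ g (b : B ℤ), Nf (A' g *ᵥ b) = (N : ℤ) ^ 2 * Nf b ∧ Phi (A' g *ᵥ b) = (N : ℤ) ^ 3 * Phi b := by
    intro g b
    have e : Int.castRingHom ℚ ∘ (A' g *ᵥ b) = ((N : ℤ) : ℚ) • g.1.1 (Int.castRingHom ℚ ∘ b) := by
      funext i
      rw [Function.comp_apply, RingHom.map_mulVec, hA', smul_mulVec, hM]
    constructor <;> apply (Int.castRingHom ℚ).injective_int
    · rw [← Nf_map, e, Nf_smul, (g.1.2 _).1, Nf_map, map_mul, map_pow]; rfl
    · rw [← Phi_map, e, Phi_smul, (g.1.2 _).2, Phi_map, map_mul, map_pow]; rfl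
  obtain ⟨C, hC⟩ := (Set.finite_range fun t => (A t).natAbs).bddAbove
  have hC' : ∀ t, (A t).natAbs ≤ C := fun t => hC ⟨t, rfl⟩
  obtain ⟨p, hp, pp⟩ := Nat.exists_infinite_primes (201 + (N : ℤ).natAbs + 2 * C)
  have : Fact p.Prime := ⟨pp⟩
  have := big_zmod (p := p) (by omega)
  have := finite_zmod p
  have Np : ((N : ℤ) : ZMod p) ≠ 0 := fun e => by
    have := Int.natAbs_le_of_dvd_ne_zero ((ZMod.intCast_zmod_eq_zero_iff_dvd _ p).1 e) N0
    rw [Int.natAbs_natCast] at this
    omega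
  have ex : ∀ g : s, ∃ k : GG (ZMod p), ∀ b, (k : B (ZMod p) ≃ₗ[ZMod p] B (ZMod p)) b =
      ((N : ℤ) : ZMod p)⁻¹ • ((A' g).map (Int.castRingHom (ZMod p)) *ᵥ b) := fun g => by
    refine exists_GG' (((N : ℤ) : ZMod p)⁻¹ • Matrix.toLin' ((A' g).map (Int.castRingHom (ZMod p)))) fun b => ?_
    obtain ⟨c, rfl⟩ : ∃ c : B ℤ, Int.castRingHom (ZMod p) ∘ c = b :=
      ⟨fun i => (ZMod.intCast_surjective (b i)).choose, funext fun i => (ZMod.intCast_surjective (b i)).choose_spec⟩
    have e : (A' g).map (Int.castRingHom (ZMod p)) *ᵥ (Int.castRingHom (ZMod p) ∘ c) =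
        Int.castRingHom (ZMod p) ∘ (A' g *ᵥ c) := funext fun i => (RingHom.map_mulVec _ _ _ i).symm
    rw [LinearMap.smul_apply, toLin'_apply, e, Nf_smul, Phi_smul, Nf_map, Phi_map, (key g c).1, (key g c).2, Nf_map,
      Phi_map, map_mul, map_mul, map_pow, map_pow, eq_intCast _ (N : ℤ)]
    constructor <;> field_simp
  choose k hk using ex
  have inj : Function.Injective k := fun g g' e => by
    have e1 : (A' g).map (Int.castRingHom (ZMod p)) = (A' g').map (Int.castRingHom (ZMod p)) := by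
      refine Matrix.toLin'.injective (LinearMap.ext fun b => ?_)
      have := (hk g b).symm.trans (e ▸ hk g' b)
      exact smul_right_injective _ (inv_ne_zero Np) this
    have e2 : A' g = A' g' := by
      ext i j
      have h1 : ((A (g, i, j) : ℤ) : ZMod p) = A (g', i, j) := congrFun (congrFun e1 i) j
      rw [ZMod.intCast_eq_intCast_iff_dvd_sub] at h1
      have h2 := hC' (g, i, j)
      have h3 := hC' (g', i, j)
      have := Int.eq_zero_of_dvd_of_natAbs_lt_natAbs h1 (by rw [Int.natAbs_natCast]; omega)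
      change A (g, i, j) = A (g', i, j)
      omega
    have e3 : M g = M g' := smul_right_injective _ (Int.cast_ne_zero.2 N0 : ((N : ℤ) : ℚ) ≠ 0)
      ((hA' g).symm.trans (e2 ▸ hA' g'))
    exact Subtype.ext (GG_ext fun b => by rw [← hM, ← hM, e3])
  obtain ⟨z, x, -, -, h⟩ := exists_MX (F := ZMod p)
  have h1 := (Nat.card_le_card_of_injective k inj).trans (hK _ z x h)
  rw [Nat.card_eq_fintype_card, Fintype.card_coe, hs] at h1
  omega

end Cfsg.Agent.H12.GaFin
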