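import Mathlib
import Cfsg.Agent.H3.SympBasis

/-! A non-abelian finite simple group with a non-trivial rational representation of dimension
at most `2n+1` embeds in `GL (2n, 2)`. -/

set_option autoImplicit false

namespace Cfsg.Agent.H12.Lat2

open Module Matrix

variable {G : Type*} [Group G] [IsSimpleGroup G]

theorem triv_of_comm {M : Type*} [Monoid M] (hna : ¬ ∀ a b : G, a * b = b * a) (f : G →* M)
    (h : ∀ a b, f a * f b = f b * f a) (g : G) : f g = 1 := by
  rcases (MonoidHom.normal_ker f).eq_bot_or_eq_top with h1 | h1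
  · exfalso
    apply hna
    intro a b
    have : a * b * (b * a)⁻¹ ∈ f.ker := by
      rw [MonoidHom.mem_ker, map_mul, map_mul, h, ← map_mul, ← map_mul, mul_inv_cancel, map_one]
    rw [h1, Subgroup.mem_bot] at this
    exact mul_inv_eq_one.1 this
  · have : g ∈ f.ker := h1 ▸ Subgroup.mem_top g
    exact this

theorem inj_of_ne {M : Type*} [Group M] (f : G →* M) (g0 : G) (h : f g0 ≠ 1) :
    Function.Injective f := by
  rcases (MonoidHom.normal_ker f).eq_bot_or_eq_top with h1 | h1
  · exact (MonoidHom.ker_eq_bot_iff f).1 h1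
  · exact absurd (show g0 ∈ f.ker from h1 ▸ Subgroup.mem_top g0) h

theorem pad {K : Type*} [Field K] {U : Type*} [AddCommGroup U] [Module K U]
    [FiniteDimensional K U] (N : ℕ) (hU : finrank K U ≤ N) (τ : G →* End K U) (g0 : G)
    (h0 : τ g0 ≠ 1) : ∃ f : G →* GL (Fin N) K, Function.Injective f := by
  let τ' : G →* End K (U × (Fin (N - finrank K U) → K)) :=
    { toFun := fun g => (τ g).prodMap LinearMap.id
      map_one' := by ext <;> simp
      map_mul' := by intro a b; ext <;> simp }
  have hd : finrank K (U × (Fin (N - finrank K U) → K)) = N := by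
    rw [Module.finrank_prod, Module.finrank_fin_fun]; omega
  let b := Module.finBasisOfFinrankEq K _ hd
  let φ : G →* Matrix (Fin N) (Fin N) K :=
    (LinearMap.toMatrixAlgEquiv b).toAlgHom.toRingHom.toMonoidHom.comp τ'
  refine ⟨φ.toHomUnits, inj_of_ne _ g0 fun h => h0 ?_⟩
  have h1 : φ g0 = 1 := by
    have := congrArg Units.val h
    simpa using this
  have h2 : τ' g0 = 1 := by
    apply (LinearMap.toMatrixAlgEquiv b).injective
    rw [map_one]
    exact h1
  ext u
  have := congrArg Prod.fst (LinearMap.congr_fun h2 (u, 0))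
  simpa [τ'] using this

theorem red {K : Type*} [Field K] {U : Type*} [AddCommGroup U] [Module K U]
    [FiniteDimensional K U] (hna : ¬ ∀ a b : G, a * b = b * a) (N : ℕ) (hU : finrank K U ≤ N + 1)
    (τ : G →* End K U) (g0 : G) (h0 : τ g0 ≠ 1) (W : Submodule K U) (hb : W ≠ ⊥) (ht : W ≠ ⊤)
    (hW : ∀ g, W ≤ W.comap (τ g)) : ∃ f : G →* GL (Fin N) K, Function.Injective f := by
  have h1 : finrank K W < finrank K U := Submodule.finrank_lt ht
  have h2 : 0 < finrank K W := by
    rw [Module.finrank_pos_iff_exists_ne_zero]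
    obtain ⟨x, hx, hx0⟩ := Submodule.exists_mem_ne_zero_of_ne_bot hb
    exact ⟨⟨x, hx⟩, fun h => hx0 (congrArg Subtype.val h)⟩
  have h3 := W.finrank_quotient_add_finrank
  by_cases ha : ∀ g, Representation.subrepresentation τ W hW g = 1
  · by_cases hq : ∀ g, Representation.quotient τ W hW g = 1
    · exfalso
      apply h0
      have e1 : ∀ g u, τ g u - u ∈ W := by
        intro g u
        rw [← Submodule.Quotient.eq]
        have := LinearMap.congr_fun (hq g) (Submodule.Quotient.mk u)
        simpa using this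
      have e2 : ∀ g u, u ∈ W → τ g u = u := by
        intro g u hu
        have := congrArg Subtype.val (LinearMap.congr_fun (ha g) ⟨u, hu⟩)
        simpa using this
      refine triv_of_comm hna τ (fun a b => ?_) g0
      ext u
      have k1 := e2 a _ (e1 b u)
      have k2 := e2 b _ (e1 a u)
      rw [map_sub] at k1 k2
      simp only [End.mul_apply]
      rw [sub_eq_iff_eq_add] at k1 k2
      rw [k1, k2]; abel
    · push Not at hq
      obtain ⟨g, hg⟩ := hq
      exact pad N (by omega) (Representation.quotient τ W hW) g hg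
  · push Not at ha
    obtain ⟨g, hg⟩ := ha
    exact pad N (by omega) (Representation.subrepresentation τ W hW) g hg

theorem form2 {U : Type*} [AddCommGroup U] [Module (ZMod 2) U] [FiniteDimensional (ZMod 2) U]
    (hna : ¬ ∀ a b : G, a * b = b * a) (n : ℕ) (hU : finrank (ZMod 2) U ≤ 2 * n + 1)
    (τ : G →* End (ZMod 2) U) (g0 : G) (h0 : τ g0 ≠ 1) (B : LinearMap.BilinForm (ZMod 2) U)
    (hs : ∀ x y, B x y = B y x) (hB : B ≠ 0) (hi : ∀ g x y, B (τ g x) (τ g y) = B x y) :
    ∃ f : G →* GL (Fin (2 * n)) (ZMod 2), Function.Injective f := by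
  by_cases hd : finrank (ZMod 2) U ≤ 2 * n
  · exact pad _ hd τ g0 h0
  by_cases hr : LinearMap.ker B = ⊥
  swap
  · refine red hna _ hU τ g0 h0 (LinearMap.ker B) hr (fun h => hB (LinearMap.ker_eq_top.1 h)) ?_
    intro g x hx
    simp only [Submodule.mem_comap, LinearMap.mem_ker] at hx ⊢
    ext y
    have : y = τ g (τ g⁻¹ y) := by
      rw [← End.mul_apply, ← map_mul, mul_inv_cancel, map_one, End.one_apply]
    rw [this, hi, hx]; rfl
  have h2 : ∀ c : ZMod 2, c + c = 0 := by decide
  have h3 : ∀ c : ZMod 2, c * c = c := by decide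
  let q : U →ₗ[ZMod 2] ZMod 2 :=
    { toFun := fun x => B x x
      map_add' := by
        intro x y
        simp only [map_add, LinearMap.add_apply]
        rw [hs y x]
        linear_combination h2 (B x y)
      map_smul' := by
        intro c x
        simp only [map_smul, LinearMap.smul_apply, smul_eq_mul, RingHom.id_apply]
        rw [← mul_assoc, h3] }
  have hq : ∀ g x, q (τ g x) = q x := fun g x => hi g x x
  refine red hna _ hU τ g0 h0 (LinearMap.ker q) (fun h => h0 ?_) (fun h => ?_) ?_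
  · ext x
    have : τ g0 x - x ∈ LinearMap.ker q := by
      rw [LinearMap.mem_ker, map_sub, hq, sub_self]
    rw [h, Submodule.mem_bot, sub_eq_zero] at this
    exact this
  · have hA : B.IsAlt := fun x => by
      have : x ∈ LinearMap.ker q := h ▸ Submodule.mem_top
      exact this
    have hN : B.Nondegenerate := by
      have hl : ∀ x, (∀ y, B x y = 0) → x = 0 := by
        intro x hx
        have : x ∈ LinearMap.ker B := by
          rw [LinearMap.mem_ker]; ext y; exact hx y
        rwa [hr, Submodule.mem_bot] at this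
      exact ⟨hl, fun x hx => hl x fun y => by rw [hs]; exact hx y⟩
    obtain ⟨m, hm⟩ := H3.even_finrank_of_isAlt B hA hN
    omega
  · intro g x hx
    simp only [Submodule.mem_comap, LinearMap.mem_ker] at hx ⊢
    rw [hq, hx]

theorem mod2_ne {m : ℕ} (hna : ¬ ∀ a b : G, a * b = b * a)
    (A : G →* Matrix (Fin m) (Fin m) ℤ) (g0 : G) (h0 : A g0 ≠ 1) :
    ∃ g, (A g).map (Int.castRingHom (ZMod 2)) ≠ 1 := by
  by_contra hc
  push Not at hc
  have tr : ∀ (N : ℕ) (M : Matrix (Fin m) (Fin m) ℤ),
      M.map (Int.castRingHom (ZMod N)) = 0 ↔ ∃ C : Matrix (Fin m) (Fin m) ℤ, M = (N : ℤ) • C := by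
    intro N M
    constructor
    · intro h
      have : ∀ i j, (N : ℤ) ∣ M i j := fun i j => by
        have := congrFun (congrFun h i) j
        simpa [ZMod.intCast_zmod_eq_zero_iff_dvd] using this
      choose C hC using this
      exact ⟨Matrix.of C, by ext i j; simp [hC]⟩
    · rintro ⟨C, rfl⟩
      ext i j
      rw [Matrix.map_apply, Matrix.smul_apply, smul_eq_mul, map_mul]
      simp
  have tr1 : ∀ (N : ℕ) (M : Matrix (Fin m) (Fin m) ℤ),
      (Int.castRingHom (ZMod N)).mapMatrix M = 1 ↔
        ∃ C : Matrix (Fin m) (Fin m) ℤ, M = 1 + (N : ℤ) • C := by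
    intro N M
    have := tr N (M - 1)
    rw [← RingHom.mapMatrix_apply, map_sub, map_one, sub_eq_zero] at this
    rw [this]
    simp only [sub_eq_iff_eq_add']
  have key : ∀ k : ℕ, ∀ g, ∃ C : Matrix (Fin m) (Fin m) ℤ, A g = 1 + ((2 ^ (k + 1) : ℕ) : ℤ) • C := by
    intro k
    induction k with
    | zero => intro g; exact (tr1 2 _).1 (hc g)
    | succ k ih =>
      intro g
      rw [← tr1]
      refine triv_of_comm hna
        ((Int.castRingHom (ZMod (2 ^ (k + 1 + 1)))).mapMatrix.toMonoidHom.comp A) (fun a b => ?_) g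
      obtain ⟨C, hC⟩ := ih a
      obtain ⟨D, hD⟩ := ih b
      change (Int.castRingHom _).mapMatrix (A a) * (Int.castRingHom _).mapMatrix (A b) =
        (Int.castRingHom _).mapMatrix (A b) * (Int.castRingHom _).mapMatrix (A a)
      rw [← RingHom.map_mul, ← RingHom.map_mul, ← sub_eq_zero, ← map_sub,
        RingHom.mapMatrix_apply, tr]
      refine ⟨((2 ^ k : ℕ) : ℤ) • (C * D - D * C), ?_⟩
      rw [hC, hD]
      simp only [mul_add, add_mul, mul_one, one_mul, smul_mul_assoc, mul_smul_comm, smul_smul,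
        smul_sub, smul_add]
      push_cast
      rw [show (2 : ℤ) ^ (k + 1 + 1) * 2 ^ k = 2 ^ (k + 1) * 2 ^ (k + 1) by ring]
      abel
  apply h0
  ext i j
  rw [← sub_eq_zero]
  obtain ⟨C, hC⟩ := key (A g0 i j - (1 : Matrix (Fin m) (Fin m) ℤ) i j).natAbs g0
  refine Int.eq_zero_of_dvd_of_natAbs_lt_natAbs
    (d := ((2 ^ ((A g0 i j - (1 : Matrix (Fin m) (Fin m) ℤ) i j).natAbs + 1) : ℕ) : ℤ))
    ⟨C i j, ?_⟩ ?_
  · have := congrFun (congrFun hC i) j
    simp only [Matrix.add_apply, Matrix.smul_apply, smul_eq_mul] at this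
    linear_combination this
  · rw [Int.natAbs_natCast]
    exact (Nat.lt_succ_self _).trans Nat.lt_two_pow_self

omit [IsSimpleGroup G] in
theorem exists_form [Finite G] {m : ℕ} (A : G →* Matrix (Fin m) (Fin m) ℤ) (i : Fin m) :
    ∃ S : Matrix (Fin m) (Fin m) ℤ, Sᵀ = S ∧ (∀ g, (A g)ᵀ * S * A g = S) ∧
      S.map (Int.castRingHom (ZMod 2)) ≠ 0 := by
  classical
  have := Fintype.ofFinite G
  have desc : ∀ (N : ℕ) (S : Matrix (Fin m) (Fin m) ℤ), Sᵀ = S → (∀ g, (A g)ᵀ * S * A g = S) →
      S i i ≠ 0 → (S i i).natAbs = N → ∃ S : Matrix (Fin m) (Fin m) ℤ, Sᵀ = S ∧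
        (∀ g, (A g)ᵀ * S * A g = S) ∧ S.map (Int.castRingHom (ZMod 2)) ≠ 0 := by
    intro N
    induction N using Nat.strong_induction_on with
    | _ N ih =>
      intro S h1 h2 h3 h4
      by_cases h : S.map (Int.castRingHom (ZMod 2)) = 0
      swap
      · exact ⟨S, h1, h2, h⟩
      have : ∀ i j, (2 : ℤ) ∣ S i j := fun i j => by
        have := congrFun (congrFun h i) j
        simp only [Matrix.map_apply, eq_intCast, Matrix.zero_apply] at this
        exact_mod_cast (ZMod.intCast_zmod_eq_zero_iff_dvd _ 2).1 this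
      choose C hC using this
      have hS : S = (2 : ℤ) • Matrix.of C := by ext i j; simp [hC]
      have inj : ∀ X Y : Matrix (Fin m) (Fin m) ℤ, (2 : ℤ) • X = (2 : ℤ) • Y → X = Y :=
        fun X Y h => smul_right_injective _ two_ne_zero h
      refine ih (C i i).natAbs ?_ (Matrix.of C) (inj _ _ ?_) (fun g => inj _ _ ?_) ?_ rfl
      · have := hC i i
        omega
      · rw [← Matrix.transpose_smul, ← hS, h1]
      · rw [← Matrix.smul_mul, ← Matrix.mul_smul, ← hS, h2]
      · intro h0
        apply h3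
        rw [hC]
        simp only [Matrix.of_apply] at h0
        rw [h0, mul_zero]
  refine desc _ (∑ g, (A g)ᵀ * A g) ?_ ?_ ?_ rfl
  · rw [Matrix.transpose_sum]
    simp
  · intro h
    rw [Finset.mul_sum, Finset.sum_mul]
    refine Fintype.sum_equiv (Equiv.mulRight h) _ _ fun g => ?_
    simp only [Equiv.coe_mulRight, map_mul, Matrix.transpose_mul, Matrix.mul_assoc]
  · apply ne_of_gt
    rw [Matrix.sum_apply]
    refine Finset.sum_pos' (fun g _ => ?_) ⟨1, Finset.mem_univ _, by simp⟩
    rw [Matrix.mul_apply]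
    exact Finset.sum_nonneg fun k _ => mul_self_nonneg _

theorem mat2 [Finite G] (hna : ¬ ∀ a b : G, a * b = b * a) (n : ℕ) {m : ℕ} (hm : m ≤ 2 * n + 1)
    (A : G →* Matrix (Fin m) (Fin m) ℤ) (g0 : G) (h0 : A g0 ≠ 1) :
    ∃ f : G →* GL (Fin (2 * n)) (ZMod 2), Function.Injective f := by
  obtain ⟨g1, hg1⟩ := mod2_ne hna A g0 h0
  have hm0 : Nonempty (Fin m) := by
    by_contra h
    rw [not_nonempty_iff] at h
    exact h0 (Subsingleton.elim _ _)
  obtain ⟨i⟩ := hm0
  obtain ⟨S, s1, s2, s3⟩ := exists_form A i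
  let π := (Int.castRingHom (ZMod 2)).mapMatrix (m := Fin m)
  let τ : G →* End (ZMod 2) (Fin m → ZMod 2) :=
    (Matrix.toLinAlgEquiv').toAlgHom.toRingHom.toMonoidHom.comp (π.toMonoidHom.comp A)
  have hτ : ∀ g x, τ g x = π (A g) *ᵥ x := fun g x => rfl
  refine form2 hna n (by simpa using hm) τ g1 (fun h => hg1 ?_) (Matrix.toBilin' (π S)) ?_ ?_ ?_
  · apply (Matrix.toLinAlgEquiv' (R := ZMod 2) (n := Fin m)).injective
    rw [map_one]
    exact h
  · intro x y
    have : (π S)ᵀ = π S := by
      rw [RingHom.mapMatrix_apply, ← Matrix.transpose_map, s1]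
    rw [Matrix.toBilin'_apply', Matrix.toBilin'_apply', Matrix.dotProduct_mulVec,
      ← Matrix.mulVec_transpose, this, dotProduct_comm]
  · intro h
    apply s3
    exact (Matrix.toBilin' (R₁ := ZMod 2) (n := Fin m)).map_eq_zero_iff.1 h
  · intro g x y
    have : (π (A g))ᵀ * π S * π (A g) = π S := by
      conv_rhs => rw [← s2 g]
      rw [map_mul, map_mul]
      rfl
    rw [Matrix.toBilin'_apply', Matrix.toBilin'_apply', hτ, hτ]
    conv_rhs => rw [← this]
    rw [Matrix.mulVec_mulVec, Matrix.mul_assoc, ← Matrix.mulVec_mulVec _ (π (A g))ᵀ,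
      Matrix.dotProduct_mulVec x, Matrix.vecMul_transpose]

end Cfsg.Agent.H12.Lat2

namespace Cfsg.Agent.H12

open Module

theorem lat2 {G : Type*} [Group G] [Finite G] [IsSimpleGroup G]
    (hna : ¬ ∀ a b : G, a * b = b * a) {V : Type*} [AddCommGroup V] [Module ℚ V]
    [FiniteDimensional ℚ V] (n : ℕ) (hV : Module.finrank ℚ V ≤ 2 * n + 1)
    (ρ : G →* Module.End ℚ V) (g0 : G) (h0 : ρ g0 ≠ 1) :
    ∃ f : G →* GL (Fin (2 * n)) (ZMod 2), Function.Injective f := by
  classical
  let b := Module.finBasis ℚ V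
  let L : Submodule ℤ V := Submodule.span ℤ (Set.range fun p : G × Fin (finrank ℚ V) => ρ p.1 (b p.2))
  have : Module.Finite ℤ L := Module.Finite.span_of_finite ℤ (Set.finite_range _)
  have : Module.IsTorsionFree ℤ V := by
    have : IsAddTorsionFree V := IsAddTorsionFree.of_module_rat V
    infer_instance
  have : Module.Free ℤ L := Module.free_of_finite_type_torsion_free'
  let c := Module.finBasis ℤ L
  have hc : finrank ℤ L ≤ finrank ℚ V := by
    have h1 : LinearIndependent ℤ (fun i => (c i : V)) :=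
      c.linearIndependent.map' L.subtype (Submodule.ker_subtype L)
    have h2 := (LinearIndependent.iff_fractionRing ℤ ℚ).1 h1
    simpa using h2.fintype_card_le_finrank
  let ρZ : G →* End ℤ V :=
    { toFun := fun g => (ρ g).restrictScalars ℤ
      map_one' := by ext; simp
      map_mul' := by intro a b; ext; simp }
  have hL : ∀ g, L ≤ L.comap (ρZ g) := by
    intro g
    rw [Submodule.span_le]
    rintro _ ⟨p, rfl⟩
    refine Submodule.subset_span ⟨(g * p.1, p.2), ?_⟩
    simp [ρZ]
  let ρL := Representation.subrepresentation ρZ L hL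
  refine Lat2.mat2 hna n (hc.trans hV)
    ((LinearMap.toMatrixAlgEquiv c).toAlgHom.toRingHom.toMonoidHom.comp ρL) g0 fun h => h0 ?_
  have h1 : ρL g0 = 1 := by
    apply (LinearMap.toMatrixAlgEquiv c).injective
    rw [map_one]
    exact h
  refine b.ext fun i => ?_
  have hi : b i ∈ L := Submodule.subset_span ⟨(1, i), by simp⟩
  have := congrArg Subtype.val (LinearMap.congr_fun h1 ⟨b i, hi⟩)
  simpa [ρL, ρZ] using this

end Cfsg.Agent.H12
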